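/-
Arithmetic of the orders of groups of Lie type: the power of the characteristic dividing the order, and the bound by
a power of the Sylow order.
-/
import Mathlib

set_option autoImplicit false

namespace Cfsg.Agent.Lib.LieBound.Arith

/-- The general estimate. -/
theorem bound {p q a N T d R c : ℕ} (hp : p.Prime) (hq : q = p ^ a) (ha : 1 ≤ a) (hd : ¬ p ∣ d) (hR : ¬ p ∣ R)
    (h : d * c = q ^ N * R) (hRT : R < q ^ T) (hT : T ≤ 2 * N) :
    c.factorization p = a * N ∧ c < p ^ (3 * c.factorization p) ∧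
      (3 * T ≤ 5 * N → c ^ 3 < p ^ (8 * c.factorization p)) := by
  have hq0 : q ≠ 0 := by
    rw [hq]
    exact pow_ne_zero _ hp.ne_zero
  have hd0 : d ≠ 0 := by
    rintro rfl
    exact hd (dvd_zero _)
  have hR0 : R ≠ 0 := by
    rintro rfl
    exact hR (dvd_zero _)
  have hqN : q ^ N ≠ 0 := pow_ne_zero _ hq0
  have hc0 : c ≠ 0 := by
    rintro rfl
    rw [mul_zero] at h
    exact mul_ne_zero hqN hR0 h.symm
  have hf : c.factorization p = a * N := by
    have h1 := congrArg (fun x => x.factorization p) h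
    simp only [Nat.factorization_mul hd0 hc0, Nat.factorization_mul hqN hR0, Finsupp.coe_add, Pi.add_apply] at h1
    rw [Nat.factorization_eq_zero_of_not_dvd hd, Nat.factorization_eq_zero_of_not_dvd hR, zero_add, add_zero, hq,
      ← pow_mul, Nat.Prime.factorization_pow hp] at h1
    simpa using h1
  have hd1 : 1 ≤ d := Nat.one_le_iff_ne_zero.2 hd0
  have hcle : c ≤ q ^ N * R := by
    rw [← h]
    exact Nat.le_mul_of_pos_left _ hd1
  have hqpos : 0 < q := Nat.pos_of_ne_zero hq0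
  have hq1 : 1 ≤ q := hqpos
  have hpow : ∀ k, p ^ (k * c.factorization p) = q ^ (k * N) := by
    intro k
    rw [hf, hq, ← pow_mul]
    congr 1
    ring
  refine ⟨hf, ?_, ?_⟩
  · rw [hpow]
    calc c ≤ q ^ N * R := hcle
      _ < q ^ N * q ^ T := Nat.mul_lt_mul_of_pos_left hRT (Nat.pos_of_ne_zero hqN)
      _ = q ^ (N + T) := (pow_add _ _ _).symm
      _ ≤ q ^ (3 * N) := Nat.pow_le_pow_right hq1 (by omega)
  · intro h35
    rw [hpow]
    calc c ^ 3 ≤ (q ^ N * R) ^ 3 := Nat.pow_le_pow_left hcle 3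
      _ = q ^ (3 * N) * R ^ 3 := by
          rw [mul_pow, ← pow_mul]
          congr 2
          ring
      _ < q ^ (3 * N) * (q ^ T) ^ 3 := Nat.mul_lt_mul_of_pos_left (Nat.pow_lt_pow_left hRT (by norm_num)) (pow_pos hqpos _)
      _ = q ^ (3 * N + 3 * T) := by
          rw [← pow_mul, ← pow_add]
          congr 2
          ring
      _ ≤ q ^ (8 * N) := Nat.pow_le_pow_right hq1 (by omega)

section factors

variable {p q : ℕ}

theorem not_dvd_sub_one (hp : p.Prime) (hpq : p ∣ q) (hq : 2 ≤ q) {e : ℕ} (he : 1 ≤ e) : ¬ p ∣ q ^ e - 1 := by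
  intro h
  have h1 : p ∣ q ^ e := dvd_pow hpq (by omega)
  have h2 : 1 ≤ q ^ e := Nat.one_le_pow _ _ (by omega)
  have h3 : p ∣ 1 := (Nat.dvd_sub_iff_right h2 h1).1 h
  exact hp.one_lt.ne' (Nat.dvd_one.1 h3)

theorem not_dvd_add_one (hp : p.Prime) (hpq : p ∣ q) {e : ℕ} (he : 1 ≤ e) : ¬ p ∣ q ^ e + 1 := by
  intro h
  have h1 : p ∣ q ^ e := dvd_pow hpq (by omega)
  have h3 : p ∣ 1 := (Nat.dvd_add_right h1).1 h
  exact hp.one_lt.ne' (Nat.dvd_one.1 h3)

theorem not_dvd_mul (hp : p.Prime) {a b : ℕ} (ha : ¬ p ∣ a) (hb : ¬ p ∣ b) : ¬ p ∣ a * b := by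
  intro h
  rcases hp.dvd_mul.1 h with h | h
  · exact ha h
  · exact hb h

theorem not_dvd_prod (hp : p.Prime) {ι : Type*} (s : Finset ι) (f : ι → ℕ) (h : ∀ i ∈ s, ¬ p ∣ f i) :
    ¬ p ∣ ∏ i ∈ s, f i := by
  intro hd
  obtain ⟨i, hi, hdi⟩ := (Prime.dvd_finset_prod_iff hp.prime f).1 hd
  exact h i hi hdi

theorem sub_one_lt (hq : 2 ≤ q) (e : ℕ) : q ^ e - 1 < q ^ e :=
  Nat.sub_lt (pow_pos (by omega) _) one_pos

theorem add_one_lt (hq : 2 ≤ q) {e : ℕ} (he : 1 ≤ e) : q ^ e + 1 < q ^ (e + 1) := by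
  have h1 : 2 ≤ q ^ e := le_trans hq (Nat.le_self_pow (by omega) q)
  calc q ^ e + 1 < 2 * q ^ e := by omega
    _ ≤ q * q ^ e := Nat.mul_le_mul_right _ hq
    _ = q ^ (e + 1) := by ring

theorem mul_lt {A B a b : ℕ} (hq : 2 ≤ q) (hA : A < q ^ a) (hB : B ≤ q ^ b) : A * B < q ^ (a + b) := by
  rw [pow_add]
  calc A * B ≤ A * q ^ b := Nat.mul_le_mul_left _ hB
    _ < q ^ a * q ^ b := Nat.mul_lt_mul_of_pos_right hA (pow_pos (by omega) _)

/-- The sum of `i + 2` for `i < k`. -/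
def S (k : ℕ) : ℕ := ∑ i ∈ Finset.range k, (i + 2)

theorem two_mul_S (k : ℕ) : 2 * S k = k * (k + 3) := by
  induction k with
  | zero => simp [S]
  | succ k ih =>
    have : S (k + 1) = S k + (k + 2) := Finset.sum_range_succ _ _
    rw [this, mul_add, ih]
    ring

/-- The linear factors. -/
theorem prod_linear_lt (hq : 2 ≤ q) (k : ℕ) (hk : 1 ≤ k) :
    ∏ i ∈ Finset.range k, (q ^ (i + 2) - 1) < q ^ S k := by
  induction k, hk using Nat.le_induction with
  | base =>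
      simp only [S, Finset.prod_range_one, Finset.sum_range_one]
      exact sub_one_lt hq _
  | succ k hk ih =>
      rw [Finset.prod_range_succ]
      have : S (k + 1) = S k + (k + 2) := Finset.sum_range_succ _ _
      rw [this]
      exact mul_lt hq ih (sub_one_lt hq _).le

/-- The unitary factors. -/
def uf (q k : ℕ) : ℕ := ∏ i ∈ Finset.range k, (if Even (i + 1) then q ^ (i + 2) + 1 else q ^ (i + 2) - 1)

theorem uf_succ (k : ℕ) : uf q (k + 1) = uf q k * (if Even (k + 1) then q ^ (k + 2) + 1 else q ^ (k + 2) - 1) :=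
  Finset.prod_range_succ _ _

theorem pair_lt (hq : 2 ≤ q) {e : ℕ} (he : 1 ≤ e) : (q ^ e - 1) * (q ^ (e + 1) + 1) < q ^ (e + (e + 1)) := by
  have h0 : q ^ (e + (e + 1)) = q ^ e * q ^ e * q := by ring
  have h1 : q ^ (e + 1) = q ^ e * q := by ring
  have h2 : 2 ≤ q ^ e := le_trans hq (Nat.le_self_pow (by omega) q)
  rw [h0, h1]
  generalize q ^ e = y at h2
  obtain ⟨x, rfl⟩ : ∃ x, y = x + 1 := ⟨y - 1, by omega⟩
  rw [Nat.add_sub_cancel]
  nlinarith [Nat.mul_le_mul (le_refl (x + 1)) hq, Nat.zero_le (x * q)]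

theorem S_two (j : ℕ) : S (2 * j + 1 + 1) = S (2 * j) + ((2 * j + 2) + (2 * j + 2 + 1)) := by
  have h1 : S (2 * j + 1 + 1) = S (2 * j + 1) + (2 * j + 1 + 2) := Finset.sum_range_succ _ _
  have h2 : S (2 * j + 1) = S (2 * j) + (2 * j + 2) := Finset.sum_range_succ _ _
  rw [h1, h2]
  ring

theorem uf_two (j : ℕ) : uf q (2 * j + 1 + 1) = uf q (2 * j) * ((q ^ (2 * j + 2) - 1) * (q ^ (2 * j + 2 + 1) + 1)) := by
  rw [uf_succ, uf_succ]
  have h3 : ¬ Even (2 * j + 1) := by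
    rw [Nat.not_even_iff_odd]
    exact ⟨j, rfl⟩
  have h4 : Even (2 * j + 1 + 1) := ⟨j + 1, by ring⟩
  rw [if_neg h3, if_pos h4, mul_assoc]

theorem uf_even_le (hq : 2 ≤ q) (j : ℕ) : uf q (2 * j) ≤ q ^ S (2 * j) := by
  induction j with
  | zero => simp [uf, S]
  | succ j ih =>
      have e1 : 2 * (j + 1) = 2 * j + 1 + 1 := by ring
      rw [e1, uf_two, S_two, pow_add (q) (S (2 * j))]
      exact Nat.mul_le_mul ih (pair_lt hq (by omega)).le

theorem uf_lt (hq : 2 ≤ q) (k : ℕ) (hk : 1 ≤ k) : uf q k < q ^ S k := by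
  obtain ⟨j, rfl | rfl⟩ := Nat.even_or_odd' k
  · -- even
    obtain ⟨i, rfl⟩ : ∃ i, j = i + 1 := ⟨j - 1, by omega⟩
    have e1 : 2 * (i + 1) = 2 * i + 1 + 1 := by ring
    rw [e1, uf_two, S_two, pow_add (q) (S (2 * i))]
    calc _ ≤ q ^ S (2 * i) * ((q ^ (2 * i + 2) - 1) * (q ^ (2 * i + 2 + 1) + 1)) :=
          Nat.mul_le_mul_right _ (uf_even_le hq i)
      _ < _ := Nat.mul_lt_mul_of_pos_left (pair_lt hq (by omega)) (pow_pos (by omega) _)
  · rw [uf_succ]
    have h3 : ¬ Even (2 * j + 1) := by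
      rw [Nat.not_even_iff_odd]
      exact ⟨j, rfl⟩
    rw [if_neg h3]
    have : S (2 * j + 1) = S (2 * j) + (2 * j + 2) := Finset.sum_range_succ _ _
    rw [this, pow_add (q) (S (2 * j))]
    calc _ ≤ q ^ S (2 * j) * (q ^ (2 * j + 2) - 1) := Nat.mul_le_mul_right _ (uf_even_le hq j)
      _ < _ := Nat.mul_lt_mul_of_pos_left (sub_one_lt hq _) (pow_pos (by omega) _)

theorem not_dvd_uf (hp : p.Prime) (hpq : p ∣ q) (hq : 2 ≤ q) (k : ℕ) : ¬ p ∣ uf q k := by
  refine not_dvd_prod hp _ _ ?_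
  intro i _
  split_ifs
  · exact not_dvd_add_one hp hpq (by omega)
  · exact not_dvd_sub_one hp hpq hq (by omega)

/-- The factors `q^{2(i+1)} - 1`. -/
theorem prod_even_lt (hq : 2 ≤ q) (m : ℕ) (hm : 1 ≤ m) :
    ∏ i ∈ Finset.range m, (q ^ (2 * (i + 1)) - 1) < q ^ (m * (m + 1)) := by
  induction m, hm using Nat.le_induction with
  | base =>
      simp only [Finset.prod_range_one]
      simpa using sub_one_lt hq 2
  | succ k hk ih =>
      rw [Finset.prod_range_succ]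
      have : (k + 1) * (k + 1 + 1) = k * (k + 1) + 2 * (k + 1) := by ring
      rw [this]
      exact mul_lt hq ih (sub_one_lt hq _).le

theorem prod_even_le (hq : 2 ≤ q) (m : ℕ) :
    ∏ i ∈ Finset.range m, (q ^ (2 * (i + 1)) - 1) ≤ q ^ (m * (m + 1)) := by
  rcases Nat.eq_zero_or_pos m with rfl | hm
  · simp
  · exact (prod_even_lt hq m hm).le

theorem not_dvd_prod_even (hp : p.Prime) (hpq : p ∣ q) (hq : 2 ≤ q) (m : ℕ) :
    ¬ p ∣ ∏ i ∈ Finset.range m, (q ^ (2 * (i + 1)) - 1) :=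
  not_dvd_prod hp _ _ fun i _ => not_dvd_sub_one hp hpq hq (by omega)

/-- The general linear product. -/
theorem prod_gl (hq : 2 ≤ q) (n : ℕ) :
    ∏ i ∈ Finset.range n, (q ^ n - q ^ i) = q ^ (∑ i ∈ Finset.range n, i) * ∏ i ∈ Finset.range n, (q ^ (i + 1) - 1) := by
  induction n with
  | zero => simp
  | succ n ih =>
      rw [Finset.prod_range_succ', Finset.sum_range_succ, Finset.prod_range_succ, pow_zero]
      have h1 : ∀ i ∈ Finset.range n, q ^ (n + 1) - q ^ (i + 1) = q * (q ^ n - q ^ i) := by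
        intro i _
        rw [Nat.mul_sub, ← pow_succ', ← pow_succ']
      rw [Finset.prod_congr rfl h1, Finset.prod_mul_distrib, ih, Finset.prod_const, Finset.card_range, pow_add]
      ring

theorem sum_range_id' (n : ℕ) : ∑ i ∈ Finset.range n, i = n * (n - 1) / 2 := Finset.sum_range_id n

/-- The factorisation of the order of `GL_n`. -/
theorem prod_gl' (hq : 2 ≤ q) (n : ℕ) :
    ∏ i ∈ Finset.range (n + 1), (q ^ (n + 1) - q ^ i) =
      q ^ ((n + 1) * n / 2) * ((q - 1) * ∏ i ∈ Finset.range n, (q ^ (i + 2) - 1)) := by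
  rw [prod_gl hq, sum_range_id', Finset.prod_range_succ']
  simp only [Nat.add_sub_cancel, zero_add, pow_one]
  ring

end factors

end Cfsg.Agent.Lib.LieBound.Arith
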