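/-
The power of the characteristic dividing the order of a group of Lie type and the corresponding bounds, family by family.
-/
import Mathlib
import Cfsg.Agent.Lib.LieBound.Arith
import Cfsg.Agent.Lib.Classical.SympSimple
import Cfsg.Agent.S0243
import Cfsg.Agent.S0245
import Cfsg.Agent.S0280
import Cfsg.Agent.S0292
import Cfsg.Agent.S0293
import Cfsg.Agent.S0294

set_option autoImplicit false

namespace Cfsg.Agent.Lib.LieBound.Families

open Cfsg.Agent.Lib.LieBound.Arith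

/-- The conclusion, for a natural number. -/
def Good (p a N c T : ℕ) : Prop :=
  c.factorization p = a * N ∧ c < p ^ (3 * c.factorization p) ∧ (3 * T ≤ 5 * N → c ^ 3 < p ^ (8 * c.factorization p))

variable {p a : ℕ}

theorem not_dvd_of_dvd {d x : ℕ} (hd : d ∣ x) (hx : ¬ p ∣ x) : ¬ p ∣ d := fun h => hx (h.trans hd)

section PSL

variable {F : Type*} [Field F] [Fintype F]

theorem good_psl (hp : p.Prime) (ha : 1 ≤ a) (hF : Fintype.card F = p ^ a) (n : ℕ) (hn : 2 ≤ n) :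
    Good p a (n * (n - 1) / 2) (Nat.card (Matrix.ProjectiveSpecialLinearGroup (Fin n) F)) (S (n - 1)) := by
  set q := p ^ a with hqd
  have hq : 2 ≤ q := by
    calc 2 ≤ p := hp.two_le
      _ = p ^ 1 := (pow_one p).symm
      _ ≤ p ^ a := Nat.pow_le_pow_right hp.pos ha
  have hpq : p ∣ q := dvd_pow_self p (by omega)
  have h0 := Cfsg.Agent.S0243.result (F := F) hF n hn
  obtain ⟨k, rfl⟩ : ∃ k, n = k + 1 := ⟨n - 1, by omega⟩
  have hq1 : q - 1 ≠ 0 := by omega
  have hnd : ¬ p ∣ q - 1 := by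
    simpa using not_dvd_sub_one hp hpq hq (e := 1) le_rfl
  have h1 : ∏ i : Fin (k + 1), (q ^ (k + 1) - q ^ (i : ℕ)) = q ^ ((k + 1) * k / 2) * ((q - 1) * ∏ i ∈ Finset.range k, (q ^ (i + 2) - 1)) := by
    rw [Fin.prod_univ_eq_prod_range (fun i => q ^ (k + 1) - q ^ i) (k + 1), prod_gl' hq]
  rw [h1] at h0
  have h2 : Nat.gcd (k + 1) (q - 1) * Nat.card (Matrix.ProjectiveSpecialLinearGroup (Fin (k + 1)) F) =
      q ^ ((k + 1) * k / 2) * ∏ i ∈ Finset.range k, (q ^ (i + 2) - 1) := by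
    apply Nat.eq_of_mul_eq_mul_left (Nat.pos_of_ne_zero hq1)
    calc _ = Nat.gcd (k + 1) (q - 1) * ((q - 1) * Nat.card (Matrix.ProjectiveSpecialLinearGroup (Fin (k + 1)) F)) := by ring
      _ = _ := h0
      _ = _ := by ring
  have hk : 1 ≤ k := by omega
  have h2S := two_mul_S k
  have hN : 2 * ((k + 1) * k / 2) = (k + 1) * k := by
    apply Nat.two_mul_div_two_of_even
    exact Nat.even_mul_pred_self (k + 1)
  refine bound hp hqd ha (not_dvd_of_dvd (Nat.gcd_dvd_right _ _) hnd)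
    (not_dvd_prod hp _ _ fun i _ => not_dvd_sub_one hp hpq hq (by omega)) h2 (prod_linear_lt hq k hk) ?_
  simp only [Nat.add_sub_cancel]
  nlinarith


end PSL

section PSp

variable {F : Type*} [Field F] [Fintype F]

theorem good_psp (hp : p.Prime) (ha : 1 ≤ a) (hF : Fintype.card F = p ^ a) (m : ℕ) (hm : 2 ≤ m) :
    Good p a (m ^ 2) (Nat.card (Cfsg.PSp m F)) (m * (m + 1)) := by
  set q := p ^ a with hqd
  have hq : 2 ≤ q := by
    calc 2 ≤ p := hp.two_le
      _ = p ^ 1 := (pow_one p).symm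
      _ ≤ p ^ a := Nat.pow_le_pow_right hp.pos ha
  have hpq : p ∣ q := dvd_pow_self p (by omega)
  have h0 := Cfsg.Agent.S0245.result (F := F) hF m
  have hnd : ¬ p ∣ q - 1 := by
    simpa using not_dvd_sub_one hp hpq hq (e := 1) le_rfl
  have c3 : Nat.card (Matrix.symplecticGroup (Fin m) F) =
      Nat.card (Cfsg.PSp m F) * Nat.card (Subgroup.center (Matrix.symplecticGroup (Fin m) F)) :=
    Subgroup.card_eq_card_quotient_mul_card_subgroup _
  rw [Cfsg.Agent.Lib.Classical.SympSimple.card_center_symplecticGroup hF (by omega)] at c3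
  have h2 : Nat.gcd 2 (q - 1) * Nat.card (Cfsg.PSp m F) = q ^ (m ^ 2) * ∏ i ∈ Finset.range m, (q ^ (2 * (i + 1)) - 1) := by
    rw [← h0, c3, mul_comm]
  refine bound hp hqd ha (not_dvd_of_dvd (Nat.gcd_dvd_right _ _) hnd) (not_dvd_prod_even hp hpq hq m) h2
    (prod_even_lt hq m (by omega)) ?_
  nlinarith

end PSp

section PSU

variable {F : Type*} [Field F] [Fintype F]

theorem good_psu (hp : p.Prime) (ha : 1 ≤ a) {q : ℕ} (hqd : q = p ^ a) (hF : Fintype.card F = q ^ 2) (n : ℕ) (hn : 3 ≤ n) :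
    Good p a (n * (n - 1) / 2) (Nat.card (Cfsg.PSU n F q)) (S (n - 1)) := by
  have hq : 2 ≤ q := by
    rw [hqd]
    calc 2 ≤ p := hp.two_le
      _ = p ^ 1 := (pow_one p).symm
      _ ≤ p ^ a := Nat.pow_le_pow_right hp.pos ha
  have hpq : p ∣ q := by
    rw [hqd]
    exact dvd_pow_self p (by omega)
  have h0 := Cfsg.Agent.S0280.result (F := F) hF n (by omega)
  obtain ⟨k, rfl⟩ : ∃ k, n = k + 1 := ⟨n - 1, by omega⟩
  have hnd : ¬ p ∣ q + 1 := by
    simpa using not_dvd_add_one hp hpq (e := 1) le_rfl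
  have h1 : ∏ i ∈ Finset.range (k + 1), (if Even i then q ^ (i + 1) + 1 else q ^ (i + 1) - 1) = (q + 1) * uf q k := by
    rw [Finset.prod_range_succ']
    simp only [Even.zero, if_true, zero_add, pow_one, uf]
    rw [mul_comm]
  rw [h1] at h0
  have h2 : Nat.gcd (k + 1) (q + 1) * Nat.card (Cfsg.PSU (k + 1) F q) = q ^ ((k + 1) * k / 2) * uf q k := by
    apply Nat.eq_of_mul_eq_mul_left (by omega : 0 < q + 1)
    calc _ = Nat.gcd (k + 1) (q + 1) * ((q + 1) * Nat.card (Cfsg.PSU (k + 1) F q)) := by ring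
      _ = _ := by simpa using h0
      _ = _ := by ring
  have hk : 2 ≤ k := by omega
  have h2S := two_mul_S k
  have hN : 2 * ((k + 1) * k / 2) = (k + 1) * k := by
    apply Nat.two_mul_div_two_of_even
    exact Nat.even_mul_pred_self (k + 1)
  refine bound hp hqd ha (not_dvd_of_dvd (Nat.gcd_dvd_right _ _) hnd) (not_dvd_uf hp hpq hq k) h2 (uf_lt hq k (by omega)) ?_
  simp only [Nat.add_sub_cancel]
  nlinarith

end PSU

section POmega

variable {F : Type*} [Field F] [Fintype F]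

theorem good_odd (hp : p.Prime) (ha : 1 ≤ a) (hF : Fintype.card F = p ^ a) (hodd : Odd (p ^ a)) (m : ℕ) (hm : 3 ≤ m) :
    Good p a (m ^ 2) (Nat.card (Cfsg.POmega F (Cfsg.quadFormOdd m F))) (m * (m + 1)) := by
  set q := p ^ a with hqd
  have hq : 2 ≤ q := by
    calc 2 ≤ p := hp.two_le
      _ = p ^ 1 := (pow_one p).symm
      _ ≤ p ^ a := Nat.pow_le_pow_right hp.pos ha
  have hpq : p ∣ q := dvd_pow_self p (by omega)
  have h0 := Cfsg.Agent.S0292.result (F := F) hF hodd m hm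
  have h2p : ¬ p ∣ 2 := by
    intro h
    have h3 : p = 2 := (Nat.prime_dvd_prime_iff_eq hp Nat.prime_two).1 h
    rw [h3] at hpq
    have := hodd.not_two_dvd_nat
    exact this hpq
  refine bound hp hqd ha h2p (not_dvd_prod_even hp hpq hq m) h0 (prod_even_lt hq m (by omega)) ?_
  nlinarith

theorem good_plus (hp : p.Prime) (ha : 1 ≤ a) (hF : Fintype.card F = p ^ a) (m : ℕ) (hm : 4 ≤ m) :
    Good p a (m * (m - 1)) (Nat.card (Cfsg.POmega F (Cfsg.quadFormPlus m F))) (m + (m - 1) * m) := by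
  set q := p ^ a with hqd
  have hq : 2 ≤ q := by
    calc 2 ≤ p := hp.two_le
      _ = p ^ 1 := (pow_one p).symm
      _ ≤ p ^ a := Nat.pow_le_pow_right hp.pos ha
  have hpq : p ∣ q := dvd_pow_self p (by omega)
  have h0 := Cfsg.Agent.S0293.result (F := F) hF m hm
  have hnd : ¬ p ∣ q ^ m - 1 := not_dvd_sub_one hp hpq hq (by omega)
  rw [mul_assoc] at h0
  obtain ⟨k, rfl⟩ : ∃ k, m = k + 1 := ⟨m - 1, by omega⟩
  simp only [Nat.add_sub_cancel] at *
  refine bound hp hqd ha (not_dvd_of_dvd (Nat.gcd_dvd_right _ _) hnd)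
    (not_dvd_mul hp hnd (not_dvd_prod_even hp hpq hq k)) h0 (mul_lt hq (sub_one_lt hq _) (prod_even_le hq k)) ?_
  nlinarith

theorem good_minus (hp : p.Prime) (ha : 1 ≤ a) (hF : Fintype.card F = p ^ a) (m : ℕ) (hm : 4 ≤ m) (x y : F)
    (hab : ∀ z₁ z₂ : F, z₁ ^ 2 + x * z₁ * z₂ + y * z₂ ^ 2 = 0 → z₁ = 0 ∧ z₂ = 0) :
    Good p a (m * (m - 1)) (Nat.card (Cfsg.POmega F (Cfsg.quadFormMinus (m - 1) F x y))) (m + 1 + (m - 1) * m) := by
  set q := p ^ a with hqd
  have hq : 2 ≤ q := by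
    calc 2 ≤ p := hp.two_le
      _ = p ^ 1 := (pow_one p).symm
      _ ≤ p ^ a := Nat.pow_le_pow_right hp.pos ha
  have hpq : p ∣ q := dvd_pow_self p (by omega)
  have h0 := Cfsg.Agent.S0294.result (F := F) hF m hm x y hab
  have hnd : ¬ p ∣ q ^ m + 1 := not_dvd_add_one hp hpq (by omega)
  rw [mul_assoc] at h0
  obtain ⟨k, rfl⟩ : ∃ k, m = k + 1 := ⟨m - 1, by omega⟩
  simp only [Nat.add_sub_cancel] at *
  refine bound hp hqd ha (not_dvd_of_dvd (Nat.gcd_dvd_right _ _) hnd)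
    (not_dvd_mul hp hnd (not_dvd_prod_even hp hpq hq k)) h0 (mul_lt hq (add_one_lt hq (by omega)) (prod_even_le hq k)) ?_
  nlinarith

end POmega

end Cfsg.Agent.Lib.LieBound.Families
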