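/-
The power of the characteristic dividing the order of an exceptional group of Lie type and the corresponding bounds.
-/
import Mathlib
import Cfsg.Agent.Lib.LieBound.Families

set_option autoImplicit false

namespace Cfsg.Agent.Lib.LieBound.Exc

open Cfsg.Agent.Lib.LieBound.Arith Cfsg.Agent.Lib.LieBound.Families

variable {p a q c : ℕ}

section

variable (hp : p.Prime) (ha : 1 ≤ a) (hq : q = p ^ a)

include hp ha hq

theorem two_le_q : 2 ≤ q := by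
  rw [hq]
  calc 2 ≤ p := hp.two_le
    _ = p ^ 1 := (pow_one p).symm
    _ ≤ p ^ a := Nat.pow_le_pow_right hp.pos ha

theorem dvd_q : p ∣ q := by
  rw [hq]
  exact dvd_pow_self p (by omega)

theorem not_one : ¬ p ∣ 1 := fun h => hp.one_lt.ne' (Nat.dvd_one.1 h)

theorem good_g2 (h : c = q ^ 6 * (q ^ 2 - 1) * (q ^ 6 - 1)) : Good p a 6 c 8 := by
  have hq2 := two_le_q hp ha hq
  have hpq := dvd_q hp ha hq
  refine bound hp hq ha (not_one hp ha hq) (R := (q ^ 2 - 1) * (q ^ 6 - 1))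
    (not_dvd_mul hp (not_dvd_sub_one hp hpq hq2 (by norm_num)) (not_dvd_sub_one hp hpq hq2 (by norm_num)))
    (by rw [h]; ring) (mul_lt hq2 (sub_one_lt hq2 2) (sub_one_lt hq2 6).le) (by norm_num)

theorem good_f4 (h : c = q ^ 24 * (q ^ 2 - 1) * (q ^ 6 - 1) * (q ^ 8 - 1) * (q ^ 12 - 1)) : Good p a 24 c 28 := by
  have hq2 := two_le_q hp ha hq
  have hpq := dvd_q hp ha hq
  have hn : ∀ e, 1 ≤ e → ¬ p ∣ q ^ e - 1 := fun e he => not_dvd_sub_one hp hpq hq2 he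
  have hs : ∀ e, q ^ e - 1 ≤ q ^ e := fun e => (sub_one_lt hq2 e).le
  refine bound hp hq ha (not_one hp ha hq) (R := ((q ^ 2 - 1) * (q ^ 6 - 1)) * (q ^ 8 - 1) * (q ^ 12 - 1))
    (not_dvd_mul hp (not_dvd_mul hp (not_dvd_mul hp (hn _ (by norm_num)) (hn _ (by norm_num))) (hn _ (by norm_num))) (hn _ (by norm_num)))
    (by rw [h]; ring) (mul_lt hq2 (mul_lt hq2 (mul_lt hq2 (sub_one_lt hq2 2) (hs 6)) (hs 8)) (hs 12)) (by norm_num)

theorem good_e6 (h : Nat.gcd 3 (q - 1) * c = q ^ 36 * (q ^ 2 - 1) * (q ^ 5 - 1) * (q ^ 6 - 1) * (q ^ 8 - 1) * (q ^ 9 - 1) * (q ^ 12 - 1)) :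
    Good p a 36 c 42 := by
  have hq2 := two_le_q hp ha hq
  have hpq := dvd_q hp ha hq
  have hn : ∀ e, 1 ≤ e → ¬ p ∣ q ^ e - 1 := fun e he => not_dvd_sub_one hp hpq hq2 he
  have hs : ∀ e, q ^ e - 1 ≤ q ^ e := fun e => (sub_one_lt hq2 e).le
  have h1 : ¬ p ∣ q - 1 := by simpa using hn 1 le_rfl
  refine bound hp hq ha (not_dvd_of_dvd (Nat.gcd_dvd_right _ _) h1)
    (R := (((q ^ 2 - 1) * (q ^ 5 - 1)) * (q ^ 6 - 1)) * (q ^ 8 - 1) * (q ^ 9 - 1) * (q ^ 12 - 1))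
    (not_dvd_mul hp (not_dvd_mul hp (not_dvd_mul hp (not_dvd_mul hp (not_dvd_mul hp (hn _ (by norm_num)) (hn _ (by norm_num))) (hn _ (by norm_num))) (hn _ (by norm_num))) (hn _ (by norm_num))) (hn _ (by norm_num)))
    (by rw [h]; ring) (mul_lt hq2 (mul_lt hq2 (mul_lt hq2 (mul_lt hq2 (mul_lt hq2 (sub_one_lt hq2 2) (hs 5)) (hs 6)) (hs 8)) (hs 9)) (hs 12)) (by norm_num)

theorem good_e7 (h : Nat.gcd 2 (q - 1) * c = q ^ 63 * (q ^ 2 - 1) * (q ^ 6 - 1) * (q ^ 8 - 1) * (q ^ 10 - 1) * (q ^ 12 - 1) * (q ^ 14 - 1) * (q ^ 18 - 1)) :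
    Good p a 63 c 70 := by
  have hq2 := two_le_q hp ha hq
  have hpq := dvd_q hp ha hq
  have hn : ∀ e, 1 ≤ e → ¬ p ∣ q ^ e - 1 := fun e he => not_dvd_sub_one hp hpq hq2 he
  have hs : ∀ e, q ^ e - 1 ≤ q ^ e := fun e => (sub_one_lt hq2 e).le
  have h1 : ¬ p ∣ q - 1 := by simpa using hn 1 le_rfl
  refine bound hp hq ha (not_dvd_of_dvd (Nat.gcd_dvd_right _ _) h1)
    (R := (q ^ 2 - 1) * (q ^ 6 - 1) * (q ^ 8 - 1) * (q ^ 10 - 1) * (q ^ 12 - 1) * (q ^ 14 - 1) * (q ^ 18 - 1))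
    (not_dvd_mul hp (not_dvd_mul hp (not_dvd_mul hp (not_dvd_mul hp (not_dvd_mul hp (not_dvd_mul hp (hn _ (by norm_num)) (hn _ (by norm_num))) (hn _ (by norm_num))) (hn _ (by norm_num))) (hn _ (by norm_num))) (hn _ (by norm_num))) (hn _ (by norm_num)))
    (by rw [h]; ring) (mul_lt hq2 (mul_lt hq2 (mul_lt hq2 (mul_lt hq2 (mul_lt hq2 (mul_lt hq2 (sub_one_lt hq2 2) (hs 6)) (hs 8)) (hs 10)) (hs 12)) (hs 14)) (hs 18)) (by norm_num)

theorem good_e8 (h : c = q ^ 120 * (q ^ 2 - 1) * (q ^ 8 - 1) * (q ^ 12 - 1) * (q ^ 14 - 1) * (q ^ 18 - 1) * (q ^ 20 - 1) * (q ^ 24 - 1) * (q ^ 30 - 1)) :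
    Good p a 120 c 128 := by
  have hq2 := two_le_q hp ha hq
  have hpq := dvd_q hp ha hq
  have hn : ∀ e, 1 ≤ e → ¬ p ∣ q ^ e - 1 := fun e he => not_dvd_sub_one hp hpq hq2 he
  have hs : ∀ e, q ^ e - 1 ≤ q ^ e := fun e => (sub_one_lt hq2 e).le
  refine bound hp hq ha (not_one hp ha hq)
    (R := (q ^ 2 - 1) * (q ^ 8 - 1) * (q ^ 12 - 1) * (q ^ 14 - 1) * (q ^ 18 - 1) * (q ^ 20 - 1) * (q ^ 24 - 1) * (q ^ 30 - 1))
    (not_dvd_mul hp (not_dvd_mul hp (not_dvd_mul hp (not_dvd_mul hp (not_dvd_mul hp (not_dvd_mul hp (not_dvd_mul hp (hn _ (by norm_num)) (hn _ (by norm_num))) (hn _ (by norm_num))) (hn _ (by norm_num))) (hn _ (by norm_num))) (hn _ (by norm_num))) (hn _ (by norm_num))) (hn _ (by norm_num)))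
    (by rw [h]; ring) (mul_lt hq2 (mul_lt hq2 (mul_lt hq2 (mul_lt hq2 (mul_lt hq2 (mul_lt hq2 (mul_lt hq2 (sub_one_lt hq2 2) (hs 8)) (hs 12)) (hs 14)) (hs 18)) (hs 20)) (hs 24)) (hs 30)) (by norm_num)

theorem good_2e6 (h : Nat.gcd 3 (q + 1) * c = q ^ 36 * (q ^ 2 - 1) * (q ^ 5 + 1) * (q ^ 6 - 1) * (q ^ 8 - 1) * (q ^ 9 + 1) * (q ^ 12 - 1)) :
    Good p a 36 c 44 := by
  have hq2 := two_le_q hp ha hq
  have hpq := dvd_q hp ha hq
  have hn : ∀ e, 1 ≤ e → ¬ p ∣ q ^ e - 1 := fun e he => not_dvd_sub_one hp hpq hq2 he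
  have hn' : ∀ e, 1 ≤ e → ¬ p ∣ q ^ e + 1 := fun e he => not_dvd_add_one hp hpq he
  have hs : ∀ e, q ^ e - 1 ≤ q ^ e := fun e => (sub_one_lt hq2 e).le
  have hs' : ∀ e, 1 ≤ e → q ^ e + 1 ≤ q ^ (e + 1) := fun e he => (add_one_lt hq2 he).le
  have h1 : ¬ p ∣ q + 1 := by simpa using hn' 1 le_rfl
  refine bound hp hq ha (not_dvd_of_dvd (Nat.gcd_dvd_right _ _) h1)
    (R := (q ^ 2 - 1) * (q ^ 5 + 1) * (q ^ 6 - 1) * (q ^ 8 - 1) * (q ^ 9 + 1) * (q ^ 12 - 1))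
    (not_dvd_mul hp (not_dvd_mul hp (not_dvd_mul hp (not_dvd_mul hp (not_dvd_mul hp (hn _ (by norm_num)) (hn' _ (by norm_num))) (hn _ (by norm_num))) (hn _ (by norm_num))) (hn' _ (by norm_num))) (hn _ (by norm_num)))
    (by rw [h]; ring) (mul_lt hq2 (mul_lt hq2 (mul_lt hq2 (mul_lt hq2 (mul_lt hq2 (sub_one_lt hq2 2) (hs' 5 (by norm_num))) (hs 6)) (hs 8)) (hs' 9 (by norm_num))) (hs 12)) (by norm_num)

theorem good_3d4 (h : c = q ^ 12 * (q ^ 2 - 1) * (q ^ 6 - 1) * (q ^ 8 + q ^ 4 + 1)) : Good p a 12 c 17 := by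
  have hq2 := two_le_q hp ha hq
  have hpq := dvd_q hp ha hq
  have hn : ∀ e, 1 ≤ e → ¬ p ∣ q ^ e - 1 := fun e he => not_dvd_sub_one hp hpq hq2 he
  have hs : ∀ e, q ^ e - 1 ≤ q ^ e := fun e => (sub_one_lt hq2 e).le
  have h8 : ¬ p ∣ q ^ 8 + q ^ 4 + 1 := by
    intro hd
    have h1 : p ∣ q ^ 8 + q ^ 4 := dvd_add (dvd_pow hpq (by norm_num)) (dvd_pow hpq (by norm_num))
    exact not_one hp ha hq ((Nat.dvd_add_right h1).1 hd)
  have h9 : q ^ 8 + q ^ 4 + 1 ≤ q ^ 9 := by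
    have h1 : 16 ≤ q ^ 4 := by
      calc 16 = 2 ^ 4 := by norm_num
        _ ≤ q ^ 4 := Nat.pow_le_pow_left hq2 4
    have h2 : q ^ 8 = q ^ 4 * q ^ 4 := by ring
    have h3 : q ^ 9 = q * (q ^ 4 * q ^ 4) := by ring
    rw [h2, h3]
    generalize q ^ 4 = y at h1
    nlinarith [Nat.mul_le_mul hq2 (le_refl (y * y))]
  refine bound hp hq ha (not_one hp ha hq) (R := (q ^ 2 - 1) * (q ^ 6 - 1) * (q ^ 8 + q ^ 4 + 1))
    (not_dvd_mul hp (not_dvd_mul hp (hn _ (by norm_num)) (hn _ (by norm_num))) h8)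
    (by rw [h]; ring) (mul_lt hq2 (mul_lt hq2 (sub_one_lt hq2 2) (hs 6)) h9) (by norm_num)

theorem good_sz (h : c = q ^ 2 * (q ^ 2 + 1) * (q - 1)) : Good p a 2 c 3 := by
  have hq2 := two_le_q hp ha hq
  have hpq := dvd_q hp ha hq
  have hn1 : ¬ p ∣ q - 1 := by simpa using not_dvd_sub_one hp hpq hq2 (e := 1) le_rfl
  refine bound hp hq ha (not_one hp ha hq) (R := (q ^ 2 + 1) * (q - 1))
    (not_dvd_mul hp (not_dvd_add_one hp hpq (by norm_num)) hn1)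
    (by rw [h]; ring) ?_ (by norm_num)
  obtain ⟨x, rfl⟩ : ∃ x, q = x + 1 := ⟨q - 1, by omega⟩
  rw [Nat.add_sub_cancel]
  nlinarith [sq_nonneg x]

theorem good_2g2 (h : c = q ^ 3 * (q - 1) * (q ^ 3 + 1)) : Good p a 3 c 4 := by
  have hq2 := two_le_q hp ha hq
  have hpq := dvd_q hp ha hq
  have hn1 : ¬ p ∣ q - 1 := by simpa using not_dvd_sub_one hp hpq hq2 (e := 1) le_rfl
  refine bound hp hq ha (not_one hp ha hq) (R := (q - 1) * (q ^ 3 + 1))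
    (not_dvd_mul hp hn1 (not_dvd_add_one hp hpq (by norm_num)))
    (by rw [h]; ring) ?_ (by norm_num)
  obtain ⟨x, rfl⟩ : ∃ x, q = x + 1 := ⟨q - 1, by omega⟩
  rw [Nat.add_sub_cancel]
  have h1 : x < (x + 1) ^ 3 := by
    calc x < x + 1 := Nat.lt_succ_self x
      _ = (x + 1) ^ 1 := (pow_one _).symm
      _ ≤ (x + 1) ^ 3 := Nat.pow_le_pow_right (by omega) (by norm_num)
  calc x * ((x + 1) ^ 3 + 1) = x * (x + 1) ^ 3 + x := by ring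
    _ < x * (x + 1) ^ 3 + (x + 1) ^ 3 := by omega
    _ = (x + 1) ^ 4 := by ring

theorem good_2f4 (h : c = q ^ 12 * (q - 1) * (q ^ 3 + 1) * (q ^ 4 - 1) * (q ^ 6 + 1)) : Good p a 12 c 16 := by
  have hq2 := two_le_q hp ha hq
  have hpq := dvd_q hp ha hq
  have hn1 : ¬ p ∣ q - 1 := by simpa using not_dvd_sub_one hp hpq hq2 (e := 1) le_rfl
  have hs1 : q - 1 < q ^ 1 := by simpa using sub_one_lt hq2 1
  refine bound hp hq ha (not_one hp ha hq) (R := (q - 1) * (q ^ 3 + 1) * (q ^ 4 - 1) * (q ^ 6 + 1))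
    (not_dvd_mul hp (not_dvd_mul hp (not_dvd_mul hp hn1 (not_dvd_add_one hp hpq (by norm_num)))
      (not_dvd_sub_one hp hpq hq2 (by norm_num))) (not_dvd_add_one hp hpq (by norm_num)))
    (by rw [h]; ring)
    (mul_lt hq2 (mul_lt hq2 (mul_lt hq2 hs1 (add_one_lt hq2 (e := 3) (by norm_num)).le) (sub_one_lt hq2 4).le)
      (add_one_lt hq2 (e := 6) (by norm_num)).le) (by norm_num)

end

end Cfsg.Agent.Lib.LieBound.Exc
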