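/-
The order of a group of Lie type compared with the power of the characteristic dividing it.
-/
import Mathlib
import Cfsg.Agent.Lib.LieBound.Exc
import Cfsg.Agent.Lib.SzIso.Basic
import Cfsg.Agent.S1059
import Cfsg.Agent.S1062
import Cfsg.Agent.S1063
import Cfsg.Agent.S1064
import Cfsg.Agent.S1065
import Cfsg.Agent.S1066
import Cfsg.Prelude.Def_LieTypeChar

set_option autoImplicit false

namespace Cfsg.Agent.Lib.LieBound.Main

open Cfsg.Agent.Lib.LieBound.Arith Cfsg.Agent.Lib.LieBound.Families Cfsg.Agent.Lib.LieBound.Exc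

theorem exists_a (F : Type*) [Field F] [Fintype F] (p : ℕ) [CharP F p] (hp : p.Prime) :
    ∃ a, 1 ≤ a ∧ Fintype.card F = p ^ a := by
  haveI : Fact p.Prime := ⟨hp⟩
  obtain ⟨n, -, hn⟩ := FiniteField.card F p
  exact ⟨n, n.2, hn⟩

theorem exists_a_pow {p q k b : ℕ} (hp : p.Prime) (hk : k ≠ 0) (h : q ^ k = p ^ b) (h1 : 1 < q ^ k) :
    ∃ a, 1 ≤ a ∧ q = p ^ a := by
  have h2 : q ∣ p ^ b := by
    rw [← h]
    exact dvd_pow_self q hk
  obtain ⟨a, -, rfl⟩ := (Nat.dvd_prime_pow hp).1 h2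
  refine ⟨a, ?_, rfl⟩
  by_contra ha
  have : a = 0 := by omega
  subst this
  simp at h1

theorem finish {p a N c T : ℕ} (h : Good p a N c T) (hT : 3 * T ≤ 5 * N) {P : Prop} :
    c < p ^ (3 * c.factorization p) ∧ (P → c ^ 3 < p ^ (8 * c.factorization p)) :=
  ⟨h.2.1, fun _ => h.2.2 hT⟩

/-- **The bound**, given the orders of the three twisted families. -/
theorem main_aux
    (h3d4 : ∀ (K : Type) [Field K] [Fintype K] {q : ℕ}, IsPrimePow q → Fintype.card K = q ^ 3 →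
      Nat.card ↥(Cfsg.Lie.twistedD4 K q) = q ^ 12 * (q ^ 2 - 1) * (q ^ 6 - 1) * (q ^ 8 + q ^ 4 + 1))
    (h2f4 : ∀ (K : Type) [Field K] [Fintype K] {m : ℕ}, Fintype.card K = 2 ^ (2 * m + 1) →
      Nat.card ↥(Cfsg.Lie.twistedF4 K (2 ^ m)) =
        (2 ^ (2 * m + 1)) ^ 12 * (2 ^ (2 * m + 1) - 1) * ((2 ^ (2 * m + 1)) ^ 3 + 1) * ((2 ^ (2 * m + 1)) ^ 4 - 1) * ((2 ^ (2 * m + 1)) ^ 6 + 1))
    (hree : ∀ (K : Type) [Field K] [Fintype K] {m : ℕ}, Fintype.card K = 3 ^ (2 * m + 1) →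
      Nat.card ↥(Cfsg.Lie.twistedG2 K (3 ^ m)) = (3 ^ (2 * m + 1)) ^ 3 * (3 ^ (2 * m + 1) - 1) * ((3 ^ (2 * m + 1)) ^ 3 + 1))
    {G : Type*} [Group G] [Finite G] (p : ℕ) (hp : p.Prime) (hG : Cfsg.IsLieTypeChar p G) :
    Nat.card G < p ^ (3 * (Nat.card G).factorization p) ∧
      ((¬ ∃ (F : Type) (_ : Field F) (_ : Fintype F), Fintype.card F = p ^ (Nat.card G).factorization p ∧
          Nonempty (G ≃* Matrix.ProjectiveSpecialLinearGroup (Fin 2) F)) →
        Nat.card G ^ 3 < p ^ (8 * (Nat.card G).factorization p)) := by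
  rcases hG with ⟨F, _, _, _, n, hn, -, ⟨e⟩⟩ | ⟨F, _, _, _, m, hm, -, ⟨e⟩⟩ | ⟨F, _, _, _, n, q, hF, hn, -, ⟨e⟩⟩ |
    ⟨F, _, _, _, m, hm, hodd, ⟨e⟩⟩ | ⟨F, _, _, _, m, hm, ⟨e⟩⟩ | ⟨F, _, _, _, m, x, y, hm, hab, ⟨e⟩⟩ |
    ⟨F, _, _, _, hex⟩ | ⟨K, _, _, _, q, hq, hex⟩ | ⟨rfl, F, _, _, m, hm, hF, ⟨e⟩⟩ | ⟨rfl, K, _, _, m, hm, hF, ⟨e⟩⟩ |
    ⟨rfl, K, _, _, m, hm, hF, ⟨e⟩⟩
  · -- PSL
    obtain ⟨a, ha, hF⟩ := exists_a F p hp
    have hc := Nat.card_congr e.toEquiv
    have hg := good_psl hp ha hF n hn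
    rw [← hc] at hg
    by_cases hn2 : n = 2
    · subst hn2
      refine ⟨hg.2.1, fun hno => absurd ?_ hno⟩
      refine ⟨F, inferInstance, inferInstance, ?_, ⟨e⟩⟩
      rw [hg.1, hF]
      simp
    · refine finish hg ?_
      have h2S := two_mul_S (n - 1)
      have hN : 2 * (n * (n - 1) / 2) = n * (n - 1) :=
        Nat.two_mul_div_two_of_even (Nat.even_mul_pred_self n)
      obtain ⟨k, rfl⟩ : ∃ k, n = k + 3 := ⟨n - 3, by omega⟩
      simp only [show k + 3 - 1 = k + 2 from rfl] at *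
      nlinarith
  · -- PSp
    obtain ⟨a, ha, hF⟩ := exists_a F p hp
    have hc := Nat.card_congr e.toEquiv
    have hg := good_psp hp ha hF m hm
    rw [← hc] at hg
    exact finish hg (by nlinarith)
  · -- PSU
    obtain ⟨b, hb, hF'⟩ := exists_a F p hp
    have h1 : 1 < q ^ 2 := by
      rw [← hF]
      exact Fintype.one_lt_card
    obtain ⟨a, ha, hqa⟩ := exists_a_pow hp two_ne_zero (hF.symm.trans hF') h1
    have hc := Nat.card_congr e.toEquiv
    have hg := good_psu hp ha hqa hF n hn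
    rw [← hc] at hg
    refine finish hg ?_
    have h2S := two_mul_S (n - 1)
    have hN : 2 * (n * (n - 1) / 2) = n * (n - 1) :=
      Nat.two_mul_div_two_of_even (Nat.even_mul_pred_self n)
    obtain ⟨k, rfl⟩ : ∃ k, n = k + 3 := ⟨n - 3, by omega⟩
    simp only [show k + 3 - 1 = k + 2 from rfl] at *
    nlinarith
  · -- odd
    obtain ⟨a, ha, hF⟩ := exists_a F p hp
    have hc := Nat.card_congr e.toEquiv
    rw [hF] at hodd
    have hg := good_odd hp ha hF hodd m hm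
    rw [← hc] at hg
    exact finish hg (by nlinarith)
  · -- plus
    obtain ⟨a, ha, hF⟩ := exists_a F p hp
    have hc := Nat.card_congr e.toEquiv
    have hg := good_plus hp ha hF m hm
    rw [← hc] at hg
    refine finish hg ?_
    obtain ⟨k, rfl⟩ : ∃ k, m = k + 4 := ⟨m - 4, by omega⟩
    simp only [show k + 4 - 1 = k + 3 from rfl] at *
    nlinarith
  · -- minus
    obtain ⟨a, ha, hF⟩ := exists_a F p hp
    have hc := Nat.card_congr e.toEquiv
    have hg := good_minus hp ha hF m hm x y hab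
    rw [← hc] at hg
    refine finish hg ?_
    obtain ⟨k, rfl⟩ : ∃ k, m = k + 4 := ⟨m - 4, by omega⟩
    simp only [show k + 4 - 1 = k + 3 from rfl] at *
    nlinarith
  · -- exceptional
    obtain ⟨a, ha, hF⟩ := exists_a F p hp
    rcases hex with ⟨-, ⟨e⟩⟩ | ⟨⟨e⟩⟩ | ⟨⟨e⟩⟩ | ⟨⟨e⟩⟩ | ⟨⟨e⟩⟩
    · have hc := Nat.card_congr e.toEquiv
      have hg := good_g2 hp ha (rfl : p ^ a = p ^ a) (Cfsg.Agent.S1059.result hF)
      rw [← hc] at hg
      exact finish hg (by norm_num)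
    · have hc := Nat.card_congr e.toEquiv
      have hg := good_f4 hp ha (rfl : p ^ a = p ^ a) (Cfsg.Agent.S1062.result hF)
      rw [← hc] at hg
      exact finish hg (by norm_num)
    · have hc := Nat.card_congr e.toEquiv
      have hg := good_e6 hp ha (rfl : p ^ a = p ^ a) (Cfsg.Agent.S1063.result hF)
      rw [← hc] at hg
      exact finish hg (by norm_num)
    · have hc := Nat.card_congr e.toEquiv
      have hg := good_e7 hp ha (rfl : p ^ a = p ^ a) (Cfsg.Agent.S1064.result hF)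
      rw [← hc] at hg
      exact finish hg (by norm_num)
    · have hc := Nat.card_congr e.toEquiv
      have hg := good_e8 hp ha (rfl : p ^ a = p ^ a) (Cfsg.Agent.S1065.result hF)
      rw [← hc] at hg
      exact finish hg (by norm_num)
  · -- twisted
    obtain ⟨b, hb, hF'⟩ := exists_a K p hp
    rcases hex with ⟨hF, ⟨e⟩⟩ | ⟨hF, ⟨e⟩⟩
    · have h1 : 1 < q ^ 2 := by
        rw [← hF]
        exact Fintype.one_lt_card
      obtain ⟨a, ha, hqa⟩ := exists_a_pow hp two_ne_zero (hF.symm.trans hF') h1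
      have hc := Nat.card_congr e.toEquiv
      have hg := good_2e6 hp ha hqa (Cfsg.Agent.S1066.result hq hF)
      rw [← hc] at hg
      exact finish hg (by norm_num)
    · have h1 : 1 < q ^ 3 := by
        rw [← hF]
        exact Fintype.one_lt_card
      obtain ⟨a, ha, hqa⟩ := exists_a_pow hp (by norm_num) (hF.symm.trans hF') h1
      have hc := Nat.card_congr e.toEquiv
      have hg := good_3d4 hp ha hqa (h3d4 K hq hF)
      rw [← hc] at hg
      exact finish hg (by norm_num)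
  · -- Suzuki
    have hc := Nat.card_congr e.toEquiv
    have hg := good_sz Nat.prime_two (a := 2 * m + 1) (by omega) (rfl : 2 ^ (2 * m + 1) = 2 ^ (2 * m + 1))
      (Cfsg.Agent.Lib.SzIso.Basic.card_LieSz hm hF)
    rw [← hc] at hg
    exact finish hg (by norm_num)
  · -- 2F4
    have hc := Nat.card_congr e.toEquiv
    have hg := good_2f4 Nat.prime_two (a := 2 * m + 1) (by omega) (rfl : 2 ^ (2 * m + 1) = 2 ^ (2 * m + 1)) (h2f4 K hF)
    rw [← hc] at hg
    exact finish hg (by norm_num)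
  · -- 2G2
    have hc := Nat.card_congr e.toEquiv
    have hg := good_2g2 Nat.prime_three (a := 2 * m + 1) (by omega) (rfl : 3 ^ (2 * m + 1) = 3 ^ (2 * m + 1)) (hree K hF)
    rw [← hc] at hg
    exact finish hg (by norm_num)

end Cfsg.Agent.Lib.LieBound.Main
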